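import Mathlib

set_option autoImplicit false

namespace Cfsg.Agent.Lib.Helper60

/-- restriction of an additive endomorphism to an invariant subgroup -/
noncomputable def resEnd {A : Type*} [AddCommGroup A] (S : AddSubgroup A) (f : A →+ A)
    (h : ∀ x ∈ S, f x ∈ S) : S →+ S :=
  (f.comp S.subtype).codRestrict S (fun x => h x x.2)

theorem resEnd_coe {A : Type*} [AddCommGroup A] (S : AddSubgroup A) (f : A →+ A)
    (h : ∀ x ∈ S, f x ∈ S) (x : S) : ((resEnd S f h x : S) : A) = f x := rfl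

/-- elementary abelian case -/
theorem isSquare_card_of_quat_elem {A : Type*} [AddCommGroup A] [Finite A] (I J : A →+ A)
    (hI : ∀ x, I (I x) = -x) (hJ : ∀ x, J (J x) = -x) (hIJ : ∀ x, I (J x) = - J (I x))
    (r : ℕ) (hr : r.Prime) (hodd : Odd r) (hrA : ∀ x : A, r • x = 0) : IsSquare (Nat.card A) := by
  have : Fact r.Prime := ⟨hr⟩
  obtain ⟨a0, b0, hab0⟩ := ZMod.sq_add_sq r (-1)
  obtain ⟨a, ha⟩ : ∃ a : ℕ, (a : ZMod r) = a0 := ⟨a0.val, by simp⟩
  obtain ⟨b, hb⟩ : ∃ b : ℕ, (b : ZMod r) = b0 := ⟨b0.val, by simp⟩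
  have hdvd : r ∣ a ^ 2 + b ^ 2 + 1 := by
    rw [← ZMod.natCast_eq_zero_iff]
    push_cast
    rw [ha, hb, hab0]; ring
  obtain ⟨c, hc⟩ := hdvd
  have hkill : ∀ x : A, (a ^ 2 + b ^ 2 + 1) • x = 0 := by
    intro x
    rw [hc, mul_comm, mul_smul, hrA, smul_zero]
  -- U
  let U : A →+ A := a • I + b • J
  have hU : ∀ x, U x = a • I x + b • J x := fun x => rfl
  have hJIJ : ∀ x, J (I (J x)) = I x := by
    intro x; rw [hIJ, map_neg, hJ, neg_neg]
  have hIJI : ∀ x, I (J (I x)) = J x := by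
    intro x; rw [hIJ, hI, map_neg, neg_neg]
  have hUU : ∀ x, U (U x) = x := by
    intro x
    have h1 : U (U x) = x - (a ^ 2 + b ^ 2 + 1) • x := by
      simp only [hU, map_add, map_nsmul, hI, hJ, hIJ]
      simp only [← natCast_zsmul]
      push_cast
      module
    rw [h1, hkill, sub_zero]
  let K : A →+ A := I.comp J
  have hK : ∀ x, K x = I (J x) := fun x => rfl
  have hKK : ∀ x, K (K x) = -x := by
    intro x; rw [hK, hK, hJIJ, hI]
  have hUK : ∀ x, U (K x) = - K (U x) := by
    intro x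
    simp only [hU, hK, map_add, map_nsmul, hI, hJ, hJIJ, hIJI, map_neg]
    simp only [← natCast_zsmul]
    module
  -- phi = id + U
  let φ : A →+ A := AddMonoidHom.id A + U
  have hφ : ∀ x, φ x = x + U x := fun x => rfl
  have hcard : Nat.card φ.ker * Nat.card φ.range = Nat.card A := by
    rw [← AddSubgroup.index_ker, AddSubgroup.card_mul_index]
  have hker : ∀ x, x ∈ φ.ker ↔ U x = -x := by
    intro x
    rw [AddMonoidHom.mem_ker, hφ]
    constructor
    · intro h; exact (neg_eq_of_add_eq_zero_right h).symm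
    · intro h; rw [h]; simp
  obtain ⟨m, hm⟩ := hodd
  have hrange : ∀ x, x ∈ φ.range ↔ U x = x := by
    intro x
    constructor
    · rintro ⟨y, rfl⟩
      rw [hφ, map_add, hUU, add_comm]
    · intro h
      refine ⟨(m + 1) • x, ?_⟩
      rw [hφ, map_nsmul, h, ← two_nsmul, ← mul_smul]
      have : 2 * (m + 1) = r + 1 := by omega
      rw [this, add_smul, hrA, zero_add, one_smul]
  have hequiv : Nat.card φ.ker = Nat.card φ.range := by
    refine Nat.card_congr
      { toFun := fun x => ⟨K x.1, ?_⟩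
        invFun := fun y => ⟨- K y.1, ?_⟩
        left_inv := ?_
        right_inv := ?_ }
    · rw [hrange, hUK, (hker _).1 x.2, map_neg, neg_neg]
    · rw [hker, map_neg, hUK, (hrange _).1 y.2]
    · intro x; apply Subtype.ext; simp [hKK]
    · intro y; apply Subtype.ext; simp [hKK]
  rw [← hcard, hequiv]
  exact ⟨_, rfl⟩

/-- A finite abelian group of odd order with endomorphisms `I`, `J` satisfying the quaternion
relations `I² = J² = -1`, `IJ = -JI` has square order. -/
theorem isSquare_card_of_quat {A : Type*} [AddCommGroup A] [Finite A] (I J : A →+ A)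
    (hI : ∀ x, I (I x) = -x) (hJ : ∀ x, J (J x) = -x) (hIJ : ∀ x, I (J x) = - J (I x))
    (hodd : Odd (Nat.card A)) : IsSquare (Nat.card A) := by
  obtain ⟨n, hn⟩ : ∃ n, Nat.card A = n := ⟨_, rfl⟩
  induction n using Nat.strong_induction_on generalizing A with
  | _ n ih =>
    by_cases h1 : n = 1
    · rw [hn, h1]; exact ⟨1, rfl⟩
    have hr : (n.minFac).Prime := Nat.minFac_prime h1
    obtain ⟨r, hrdef⟩ : ∃ r, r = n.minFac := ⟨_, rfl⟩
    rw [← hrdef] at hr
    have hrn : r ∣ Nat.card A := by rw [hn, hrdef]; exact Nat.minFac_dvd n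
    have hrodd : Odd r := Odd.of_dvd_nat hodd hrn
    let μ : A →+ A := nsmulAddMonoidHom r
    have hμ : ∀ x, μ x = r • x := fun x => rfl
    have hcard : Nat.card μ.ker * Nat.card μ.range = Nat.card A := by
      rw [← AddSubgroup.index_ker, AddSubgroup.card_mul_index]
    -- kernel
    have hkI : ∀ x ∈ μ.ker, I x ∈ μ.ker := by
      intro x hx
      rw [AddMonoidHom.mem_ker, hμ] at hx ⊢
      rw [← map_nsmul, hx, map_zero]
    have hkJ : ∀ x ∈ μ.ker, J x ∈ μ.ker := by
      intro x hx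
      rw [AddMonoidHom.mem_ker, hμ] at hx ⊢
      rw [← map_nsmul, hx, map_zero]
    have hsqK : IsSquare (Nat.card μ.ker) := by
      refine isSquare_card_of_quat_elem (resEnd _ I hkI) (resEnd _ J hkJ) ?_ ?_ ?_ r hr hrodd ?_
      · intro x; apply Subtype.ext; simp [resEnd_coe, hI]
      · intro x; apply Subtype.ext; simp [resEnd_coe, hJ]
      · intro x; apply Subtype.ext; simp [resEnd_coe, hIJ]
      · intro x; apply Subtype.ext
        have := x.2
        rw [AddMonoidHom.mem_ker, hμ] at this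
        simpa using this
    have hrI : ∀ x ∈ μ.range, I x ∈ μ.range := by
      rintro x ⟨y, rfl⟩
      exact ⟨I y, by rw [hμ, hμ, map_nsmul]⟩
    have hrJ : ∀ x ∈ μ.range, J x ∈ μ.range := by
      rintro x ⟨y, rfl⟩
      exact ⟨J y, by rw [hμ, hμ, map_nsmul]⟩
    have hkne : 1 < Nat.card μ.ker := by
      have : Fact r.Prime := ⟨hr⟩
      obtain ⟨x, hx⟩ := exists_prime_addOrderOf_dvd_card' (G := A) r hrn
      have hxk : x ∈ μ.ker := by
        rw [AddMonoidHom.mem_ker, hμ, ← hx]; exact addOrderOf_nsmul_eq_zero x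
      have hx0 : x ≠ 0 := by
        intro h0; rw [h0, addOrderOf_zero] at hx; exact hr.one_lt.ne hx
      rw [Finite.one_lt_card_iff_nontrivial]
      exact ⟨⟨⟨x, hxk⟩, 0, fun h => hx0 (congrArg Subtype.val h)⟩⟩
    have hpos : 0 < Nat.card μ.range := Nat.card_pos
    have hlt : Nat.card μ.range < n := by
      rw [← hn, ← hcard]
      nlinarith
    have hsqR : IsSquare (Nat.card μ.range) := by
      refine ih _ hlt (resEnd _ I hrI) (resEnd _ J hrJ) ?_ ?_ ?_ ?_ rfl
      · intro x; apply Subtype.ext; simp [resEnd_coe, hI]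
      · intro x; apply Subtype.ext; simp [resEnd_coe, hJ]
      · intro x; apply Subtype.ext; simp [resEnd_coe, hIJ]
      · exact Odd.of_dvd_nat hodd (AddSubgroup.card_addSubgroup_dvd_card _)
    rw [← hcard]
    exact hsqK.mul hsqR

/-- multiplicative form -/
theorem isSquare_card_of_quat_mul {K : Type*} [CommGroup K] [Finite K] (I J : K →* K)
    (hI : ∀ x, I (I x) = x⁻¹) (hJ : ∀ x, J (J x) = x⁻¹) (hIJ : ∀ x, I (J x) = (J (I x))⁻¹)
    (hodd : Odd (Nat.card K)) : IsSquare (Nat.card K) :=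
  isSquare_card_of_quat (A := Additive K) (MonoidHom.toAdditive I) (MonoidHom.toAdditive J)
    hI hJ hIJ hodd

end Cfsg.Agent.Lib.Helper60
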