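import Mathlib
import Cfsg.Agent.S0035
import Cfsg.Agent.S0039
import Cfsg.Agent.Lib.Helper60.QuatSquare

set_option autoImplicit false

namespace Cfsg.Agent.Lib.Helper60

/-- A Frobenius complement containing a quaternion pair `i, j` has a kernel of odd square order. -/
theorem frob_kernel_square {L : Type*} [Group L] [Finite L] (H : Subgroup L)
    (hF : Cfsg.IsFrobeniusComplement H) (i j : L) (hi : i ∈ H) (hj : j ∈ H)
    (h1 : j * j = i * i) (h2 : i * i ≠ 1) (h3 : (i * i) * (i * i) = 1) (h4 : j * i * j⁻¹ = i⁻¹) :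
    Odd (Nat.card (Cfsg.frobeniusKernel H)) ∧ IsSquare (Nat.card (Cfsg.frobeniusKernel H)) := by
  obtain ⟨N, hN, hNn, hc⟩ := Cfsg.Agent.S0035.result H hF
  have hcardN : Nat.card (Cfsg.frobeniusKernel H) = Nat.card N := by rw [← hN]; rfl
  have hNbot : N ≠ ⊥ := by
    intro h
    rw [h, Subgroup.isComplement'_bot_left] at hc
    exact hF.2.1 hc
  have hfpf := (Cfsg.Agent.S0039.result N H hc hNbot hF.1).1 hF
  obtain ⟨z, hz⟩ : ∃ z, z = i * i := ⟨_, rfl⟩
  rw [← hz] at h1 h2 h3
  have hzH : z ∈ H := hz ▸ H.mul_mem hi hi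
  have hzinv : z⁻¹ = z := inv_eq_of_mul_eq_one_left h3
  have hzz : ∀ x, z * (z * x) = x := by intro x; rw [← mul_assoc, h3, one_mul]
  have hfz : ∀ k ∈ N, z * k * z⁻¹ = k → k = 1 := by
    intro k hk hkz
    have : k ∈ N ⊓ Subgroup.centralizer {z} := by
      refine Subgroup.mem_inf.mpr ⟨hk, ?_⟩
      rw [Subgroup.mem_centralizer_singleton_iff]
      rw [mul_inv_eq_iff_eq_mul] at hkz
      exact hkz.symm
    rw [hfpf z hzH h2] at this
    exact Subgroup.mem_bot.1 this
  have hinv : ∀ k ∈ N, z * k * z⁻¹ = k⁻¹ := by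
    let ψ : N → N := fun k =>
      ⟨(k : L)⁻¹ * (z * k * z⁻¹), N.mul_mem (N.inv_mem k.2) (hNn.conj_mem _ k.2 z)⟩
    have hψinj : Function.Injective ψ := by
      intro k l hkl
      have h : (k : L)⁻¹ * (z * k * z⁻¹) = (l : L)⁻¹ * (z * l * z⁻¹) := congrArg Subtype.val hkl
      have h' : z * ((l : L) * (k : L)⁻¹) * z⁻¹ = (l : L) * (k : L)⁻¹ := by
        have e1 : z * ((l : L) * (k : L)⁻¹) * z⁻¹ = (z * l * z⁻¹) * (z * k * z⁻¹)⁻¹ := by group
        have e2 : z * l * z⁻¹ = (l : L) * ((k : L)⁻¹ * (z * k * z⁻¹)) := by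
          rw [h]; group
        rw [e1, e2]; group
      have := hfz _ (N.mul_mem l.2 (N.inv_mem k.2)) h'
      exact Subtype.ext (mul_inv_eq_one.1 this).symm
    have hψsurj := Finite.surjective_of_injective hψinj
    intro k hk
    obtain ⟨m, hm⟩ := hψsurj ⟨k, hk⟩
    have hk' : k = (m : L)⁻¹ * (z * m * z⁻¹) := (congrArg Subtype.val hm).symm
    rw [hk']
    simp only [mul_inv_rev, inv_inv, hzinv, mul_assoc, hzz, h3, mul_one]
  have hcomm : ∀ k ∈ N, ∀ l ∈ N, k * l = l * k := by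
    intro k hk l hl
    have e := hinv (k * l) (N.mul_mem hk hl)
    have e' : z * (k * l) * z⁻¹ = (z * k * z⁻¹) * (z * l * z⁻¹) := by group
    rw [e', hinv k hk, hinv l hl, ← mul_inv_rev] at e
    exact (inv_injective e).symm
  have hodd : Odd (Nat.card N) := by
    by_contra hne
    rw [Nat.not_odd_iff_even, even_iff_two_dvd] at hne
    have : Fact (Nat.Prime 2) := ⟨Nat.prime_two⟩
    obtain ⟨t, ht⟩ := exists_prime_orderOf_dvd_card' (G := N) 2 hne
    have ht2 : (t : L) * t = 1 := by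
      have := pow_orderOf_eq_one t
      rw [ht, pow_two] at this
      exact congrArg Subtype.val this
    have htinv : (t : L)⁻¹ = t := inv_eq_of_mul_eq_one_left ht2
    have h := hinv t t.2
    rw [htinv] at h
    have ht1 := hfz t t.2 h
    have : t = 1 := Subtype.ext ht1
    rw [this, orderOf_one] at ht
    omega
  letI : CommGroup N :=
    { (inferInstance : Group N) with mul_comm := fun a b => Subtype.ext (hcomm a a.2 b b.2) }
  refine ⟨hcardN ▸ hodd, ?_⟩
  rw [hcardN]
  refine isSquare_card_of_quat_mul (K := N) (MulAut.conjNormal i : MulAut N).toMonoidHom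
    (MulAut.conjNormal j : MulAut N).toMonoidHom ?_ ?_ ?_ hodd
  · intro x
    apply Subtype.ext
    have := hinv x x.2
    simp only [MulEquiv.coe_toMonoidHom, MulAut.conjNormal_apply, Subgroup.coe_inv]
    rw [← this, hz]; group
  · intro x
    apply Subtype.ext
    have := hinv x x.2
    simp only [MulEquiv.coe_toMonoidHom, MulAut.conjNormal_apply, Subgroup.coe_inv]
    rw [← this, ← h1]; group
  · intro x
    apply Subtype.ext
    simp only [MulEquiv.coe_toMonoidHom, MulAut.conjNormal_apply, Subgroup.coe_inv]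
    have hmem : j * (i * x * i⁻¹) * j⁻¹ ∈ N := hNn.conj_mem _ (hNn.conj_mem _ x.2 i) j
    rw [← hinv _ hmem]
    have hij : i * j = z * (j * i) := by
      have : j * i = i⁻¹ * j := by
        rw [← h4]; group
      rw [this, hz]; group
    have e : z * (j * (i * ↑x * i⁻¹) * j⁻¹) * z⁻¹ = (z * (j * i)) * x * (z * (j * i))⁻¹ := by group
    rw [e, ← hij]; group

/-- a quaternion pair inside a generalized quaternion group -/
theorem quat_pair (n : ℕ) : ∃ i j : QuaternionGroup (2 ^ (n + 1)),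
    j * j = i * i ∧ i * i ≠ 1 ∧ (i * i) * (i * i) = 1 ∧ j * i * j⁻¹ = i⁻¹ := by
  refine ⟨QuaternionGroup.a ((2 ^ n : ℕ) : ZMod (2 * 2 ^ (n + 1))), QuaternionGroup.xa 0, ?_, ?_, ?_, ?_⟩
  · rw [QuaternionGroup.xa_mul_xa, QuaternionGroup.a_mul_a]
    congr 1
    push_cast
    ring
  · rw [QuaternionGroup.a_mul_a, QuaternionGroup.one_def]
    intro h
    have h' := QuaternionGroup.a.inj h
    rw [← Nat.cast_add, ZMod.natCast_eq_zero_iff] at h'
    have hpos : 0 < 2 ^ n := by positivity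
    have := Nat.le_of_dvd (by omega) h'
    rw [pow_succ] at this
    omega
  · rw [QuaternionGroup.a_mul_a, QuaternionGroup.a_mul_a, QuaternionGroup.one_def]
    congr 1
    rw [← Nat.cast_add, ← Nat.cast_add, ZMod.natCast_eq_zero_iff]
    rw [pow_succ]
    exact ⟨1, by ring⟩
  · have h : QuaternionGroup.a ((2 ^ n : ℕ) : ZMod (2 * 2 ^ (n + 1))) *
        (QuaternionGroup.xa 0 * QuaternionGroup.a ((2 ^ n : ℕ) : ZMod (2 * 2 ^ (n + 1)))) =
        QuaternionGroup.xa 0 := by
      rw [QuaternionGroup.xa_mul_a, QuaternionGroup.a_mul_xa]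
      congr 1
      ring
    rw [mul_inv_eq_iff_eq_mul, eq_inv_mul_iff_mul_eq]
    exact h

end Cfsg.Agent.Lib.Helper60
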