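import Mathlib

set_option autoImplicit false

namespace Cfsg.Agent.Lib.Helper60

section lift
variable {Γ : Type*} [Group Γ] (n : ℕ) (u v : Γ)

/-- powers of `u` indexed by `ZMod (2n)` -/
noncomputable def zpw (hu : u ^ (2 * n) = 1) : ZMod (2 * n) →+ Additive Γ :=
  ZMod.lift (2 * n) ⟨zmultiplesHom (Additive Γ) (Additive.ofMul u), by
    simp only [zmultiplesHom_apply, natCast_zsmul]
    rw [← ofMul_pow, hu]; rfl⟩

theorem zpw_natCast (hu : u ^ (2 * n) = 1) (m : ℕ) :
    (zpw n u hu (m : ZMod (2 * n))).toMul = u ^ m := by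
  have : ((m : ℤ) : ZMod (2 * n)) = (m : ZMod (2 * n)) := by push_cast; rfl
  rw [← this, zpw, ZMod.lift_coe]
  simp

theorem zpw_comm (hu : u ^ (2 * n) = 1) (huv : u * v * u = v) (k : ZMod (2 * n)) :
    (zpw n u hu k).toMul * v = v * (zpw n u hu (-k)).toMul := by
  obtain ⟨m, rfl⟩ : ∃ m : ℤ, (m : ZMod (2 * n)) = k := ⟨_, ZMod.intCast_zmod_cast k⟩
  have h1 : ∀ m : ℤ, (zpw n u hu (m : ZMod (2 * n))).toMul = u ^ m := by
    intro m
    rw [zpw, ZMod.lift_coe]
    simp
  have hneg : (-(m : ZMod (2 * n))) = ((-m : ℤ) : ZMod (2 * n)) := by push_cast; rfl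
  rw [hneg, h1, h1]
  have hc : v⁻¹ * u * v = u⁻¹ := by
    have : u * v = v * u⁻¹ := by rw [eq_mul_inv_iff_mul_eq]; exact huv
    rw [mul_assoc, this]; group
  have hz : v⁻¹ * u ^ m * v = (u⁻¹) ^ m := by
    rw [← hc]
    have := (MulAut.conj v⁻¹).toMonoidHom.map_zpow u m
    simp only [MulEquiv.coe_toMonoidHom, MulAut.conj_apply, inv_inv] at this
    exact this
  rw [zpow_neg, ← inv_zpow, ← hz]; group

/-- the homomorphism from the generalized quaternion group given by a quaternion pair -/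
noncomputable def quatLift (hu : u ^ (2 * n) = 1) (hv : v * v = u ^ n) (huv : u * v * u = v) :
    QuaternionGroup n →* Γ :=
  MonoidHom.mk' (fun g => match g with
    | QuaternionGroup.a k => (zpw n u hu k).toMul
    | QuaternionGroup.xa k => v * (zpw n u hu k).toMul) (by
    intro x y
    rcases x with i | i <;> rcases y with j | j
    · simp only [QuaternionGroup.a_mul_a, map_add, toMul_add]
    · simp only [QuaternionGroup.a_mul_xa]
      rw [← mul_assoc, zpw_comm n u v hu huv, mul_assoc, ← toMul_add, ← map_add]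
      congr 3; ring
    · simp only [QuaternionGroup.xa_mul_a, map_add, toMul_add, mul_assoc]
    · simp only [QuaternionGroup.xa_mul_xa]
      rw [mul_assoc, ← mul_assoc _ v, zpw_comm n u v hu huv, mul_assoc, ← mul_assoc v v, hv,
        ← zpw_natCast n u hu n, ← toMul_add, ← toMul_add, ← map_add, ← map_add]
      congr 2; ring)

theorem quatLift_a (hu : u ^ (2 * n) = 1) (hv : v * v = u ^ n) (huv : u * v * u = v)
    (m : ℕ) : quatLift n u v hu hv huv (QuaternionGroup.a (m : ZMod (2 * n))) = u ^ m :=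
  zpw_natCast n u hu m

theorem quatLift_xa (hu : u ^ (2 * n) = 1) (hv : v * v = u ^ n) (huv : u * v * u = v) :
    quatLift n u v hu hv huv (QuaternionGroup.xa 0) = v := by
  change v * (zpw n u hu 0).toMul = v
  simp

end lift

end Cfsg.Agent.Lib.Helper60
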